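import Cfsg.Agent.Lib.Co3Mult.Orbit
import Cfsg.Agent.Lib.Co3Mult.Cert
import Cfsg.Agent.Lib.Co3Mult.Odd

/-! The elements of the certificate inside Co3. -/

set_option autoImplicit false
set_option maxRecDepth 100000

namespace CfsgLib.Co3Mult

open CfsgLib.SchurMult CfsgLib.SchurMult.PermCert CfsgLib.GolayStructure
open CfsgLib.SporRecognition.CosetCert (allBelow allBelow_spec)

/-- The tables. -/
def co3Tables : Tables where
  n := 552
  depth := 10
  ts := eltTbls

/-- A word of the certificate in the two generators. -/
def wordOf (k : ℕ) : List ℕ := eltWords.getD k []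

/-- The image of a point under a word in the two generators. -/
noncomputable def wordImg (w : List ℕ) (u : ℕ) : ℕ :=
  List.rec (fun u => u) (fun i _ ih u => genImg i (ih u)) w u

/-- The table agrees with the word. -/
noncomputable def wordCheck (k : ℕ) : Bool :=
  allBelow 10 552 fun u => Nat.beq (co3Tables.img k u) (wordImg (wordOf k) u)

theorem words_small : (decide (eltWords.length = eltTbls.length) &&
    eltWords.all (fun w => w.all fun i => decide (i < 2))) = true := by decide +kernel

theorem wordCheck_ok : (List.range eltTbls.length).all wordCheck = true := by decide +kernel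

/-- The listed elements. -/
noncomputable def el (k : ℕ) : coThreeGroup := lprod gen (wordOf k)

theorem realises : co3Tables.Realises perm552 el where
  deg := rfl
  inj := perm552_injective
  img k hk u := by
    have hk' : k < eltTbls.length := hk
    have hs : ∀ i ∈ wordOf k, i < 2 := by
      have h := words_small
      simp only [Bool.and_eq_true, List.all_eq_true, decide_eq_true_eq] at h
      have hkl : k < eltWords.length := h.1.symm ▸ hk'
      rw [wordOf, List.getD_eq_getElem _ _ hkl]
      exact fun i hi => h.2 _ (List.getElem_mem hkl) i hi
    have himg : ∀ w : List ℕ, (∀ i ∈ w, i < 2) → ∀ u : Fin 552,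
        ((perm552 (lprod gen w) u : Fin 552) : ℕ) = wordImg w u := by
      intro w
      induction w with
      | nil => intro _ u; simp [lprod, wordImg]
      | cons i w ih =>
        intro hw u
        rw [lprod, map_mul, Equiv.Perm.mul_apply, perm552_gen i (hw i List.mem_cons_self),
          ih fun j hj => hw j (List.mem_cons_of_mem _ hj)]
        rfl
    show ((perm552 (lprod gen (wordOf k)) u : Fin 552) : ℕ) = _
    rw [himg _ hs u]
    have h := wordCheck_ok
    simp only [List.all_eq_true, List.mem_range] at h
    exact (Nat.eq_of_beq_eq_true (allBelow_spec (h k hk') u u.2)).symm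

end CfsgLib.Co3Mult
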