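import Cfsg.Agent.Lib.Co3Mult.Elements
import Cfsg.Agent.Lib.SchurMult.InvertedThree
import Cfsg.Agent.Lib.SchurMult.OddSylow
import Cfsg.Agent.Lib.SchurMult.SmallSylow
import Cfsg.Agent.Lib.Mathieu.CoThreeAut

/-! The multiplier of Co3 is trivial. -/

set_option autoImplicit false
set_option maxRecDepth 100000

namespace CfsgLib.Co3Mult

open CfsgLib.SchurMult CfsgLib.SchurMult.PermCert CfsgLib.GolayStructure

theorem colCo3_table : colCo3.tableOK = true := by decide +kernel

theorem colCo3_solved : colCo3.solvedOK = true := by decide +kernel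

theorem two_ok : co3Tables.twoOK colCo3 ptsCo3 orderCo3 = true := by decide +kernel

/-- The five inverted elements. -/
noncomputable def ethree (i : Fin 5) : coThreeGroup := el (17 + i)

/-- Pairs of words with equal values, for the prime 3. -/
def rels3 : List (List ℕ × List ℕ) :=
  [([16, 22], [22, 16]), ([16, 23], [23, 16]), ([22, 23], [23, 22]), (Tables.rep 22 3, []),
    (Tables.rep 23 3, []),
    ([24, 22], Tables.rep 22 2 ++ Tables.rep 23 0 ++ [24]),
    ([24, 23], Tables.rep 22 2 ++ Tables.rep 23 1 ++ [24])]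

theorem rels3_ok : rels3.all (fun r => co3Tables.sameWord r.1 r.2) = true := by decide +kernel

theorem inverted_ok :
    (∀ i : Fin 5, co3Tables.sameWord (Tables.rep (17 + i) 3) [] = true) ∧
    (∀ i : Fin 5, co3Tables.sameWord [17 + i, 16, 17 + i] [16] = true) ∧
    (∀ i j : Fin 5, co3Tables.sameWord [17 + i, 17 + j] [17 + j, 17 + i] = true) ∧
    (∀ i : Fin 5, co3Tables.sameWord [22, 17 + i] (actU.getD i [] ++ [22]) = true) ∧
    (∀ i : Fin 5, co3Tables.sameWord [23, 17 + i] (actV.getD i [] ++ [23]) = true) ∧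
    (∀ i : Fin 5, (actU.getD i [] ++ actV.getD i []).all (fun k => decide (17 ≤ k ∧ k < 22)) = true) := by
  decide +kernel

/-- The fusion of a pair. -/
noncomputable def pairOk (t : ℕ × ℕ × ℕ × ℕ × ℕ × ℕ × ℕ) : Bool :=
  match t with
  | (i, j, h, a, b, c, d) => decide (i < 5) && decide (j < 5) &&
      co3Tables.sameWord [h, 17 + i] (Tables.rep (17 + i) a ++ Tables.rep (17 + j) b ++ [h]) &&
      co3Tables.sameWord [h, 17 + j] (Tables.rep (17 + i) c ++ Tables.rep (17 + j) d ++ [h]) &&
      decide ((a * d + 2 * (b * c)) % 3 ≠ 1)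

theorem pairs_ok : pairs3.all pairOk = true := by decide +kernel

theorem pairs_cover : ∀ i j : Fin 5, i = j ∨
    (pairs3.any fun t => (t.1 == i.1 && t.2.1 == j.1) || (t.1 == j.1 && t.2.1 == i.1)) = true := by
  decide +kernel

/-- Pairs of words with equal values, for the prime 5. -/
def rels5 : List (List ℕ × List ℕ) :=
  [([35, 36], [37, 36, 35]), (Tables.rep 35 5, []), (Tables.rep 36 5, []), (Tables.rep 37 5, []),
    ([35, 37], [37, 35]), ([36, 37], [37, 36]),
    ([38, 35], Tables.rep 35 4 ++ Tables.rep 37 1 ++ [38]), ([38, 37], Tables.rep 35 0 ++ Tables.rep 37 1 ++ [38]),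
    ([39, 36], Tables.rep 36 4 ++ Tables.rep 37 0 ++ [39]), ([39, 37], Tables.rep 36 0 ++ Tables.rep 37 1 ++ [39])]

theorem rels5_ok : rels5.all (fun r => co3Tables.sameWord r.1 r.2) = true := by decide +kernel

theorem z5_ne : (List.range 552).all (fun u => co3Tables.img 37 u == u) = false := by decide +kernel

theorem words3_ok : (co3Tables.keysIncr pts3 words3 && decide (words3.length = 3 ^ 7) &&
    words3.all (fun w => w.all fun i => decide (17 ≤ i ∧ i < 24)) &&
    pts3.all (fun q => decide (q < 552))) = true := by decide +kernel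

theorem words5_ok : co3Tables.keysIncr pts5 words5 = true ∧ words5.length = 5 ^ 3 ∧
    (∀ w ∈ words5, ∀ i ∈ w, i = 35 ∨ i = 36) ∧ ∀ q ∈ pts5, q < 552 := by decide +kernel

theorem cube_of_mem_closure {G : Type*} [Group G] {S : Set G} (hc : ∀ a ∈ S, ∀ b ∈ S, Commute a b)
    (h3 : ∀ a ∈ S, a ^ 3 = 1) {x : G} (hx : x ∈ Subgroup.closure S) : x ^ 3 = 1 := by
  haveI : IsMulCommutative (Subgroup.closure S) :=
    Subgroup.isMulCommutative_closure fun a ha b hb => hc a ha b hb
  induction hx using Subgroup.closure_induction with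
  | mem x hx => exact h3 x hx
  | one => exact one_pow 3
  | mul p q hp hq ihp ihq =>
    have hpq : Commute p q :=
      congrArg Subtype.val (mul_comm' (⟨p, hp⟩ : Subgroup.closure S) ⟨q, hq⟩)
    rw [hpq.mul_pow, ihp, ihq, one_mul]
  | inv p hp ihp => rw [inv_pow, ihp, inv_one]

theorem card_co3 : Nat.card coThreeGroup = 2 ^ 10 * (3 ^ 7 * 5 ^ 3 * 7 * 11 * 23) := by
  rw [natCard_coThreeGroup]; norm_num

variable {Γ : Type} [Group Γ] [Finite Γ] {σ : Γ →* coThreeGroup}

theorem not_three [Finite coThreeGroup] (hσ : Cfsg.IsStemExtension σ) : ¬ 3 ∣ Nat.card σ.ker := by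
  have hok := rels3_ok
  simp only [rels3, List.all_cons, List.all_nil, Bool.and_eq_true, and_true] at hok
  obtain ⟨ezu, ezv, euv, eu, ev, egu, egv⟩ := hok
  replace ezu := realises.eq_of_sameWord ezu
  replace ezv := realises.eq_of_sameWord ezv
  replace euv := realises.eq_of_sameWord euv
  replace eu := realises.eq_of_sameWord eu
  replace ev := realises.eq_of_sameWord ev
  replace egu := realises.eq_of_sameWord egu
  replace egv := realises.eq_of_sameWord egv
  simp only [lprod_append, Tables.lprod_rep, lprod, mul_one] at ezu ezv euv eu ev egu egv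
  obtain ⟨hE3, hinv, hcomm, hau, hav, hact⟩ := inverted_ok
  have hE : ∀ i, ethree i ^ 3 = 1 := fun i => by
    have := realises.eq_of_sameWord (hE3 i)
    simpa only [Tables.lprod_rep, lprod, ethree] using this
  have hEc : ∀ i j, Commute (ethree i) (ethree j) := fun i j => by
    have := realises.eq_of_sameWord (hcomm i j)
    simp only [lprod, mul_one] at this
    exact this
  have hmem : ∀ w : List ℕ, (∀ k ∈ w, 17 ≤ k ∧ k < 22) → lprod el w ∈ Subgroup.closure (Set.range ethree) :=
    fun w hw => Tables.lprod_mem fun k hk => Subgroup.subset_closure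
      ⟨⟨k - 17, by have := hw k hk; omega⟩, by
        show el (17 + (k - 17)) = el k
        rw [Nat.add_sub_cancel' (hw k hk).1]⟩
  have hconj : ∀ (a : ℕ) (act : List (List ℕ)),
      (∀ i : Fin 5, co3Tables.sameWord [a, 17 + i] (act.getD i [] ++ [a]) = true) →
      (∀ i : Fin 5, ∀ k ∈ act.getD i [], 17 ≤ k ∧ k < 22) →
      ∀ i, el a * ethree i * (el a)⁻¹ ∈ Subgroup.closure (Set.range ethree) := by
    intro a act h1 h2 i
    have := realises.eq_of_sameWord (h1 i)
    simp only [lprod_append, lprod, mul_one] at this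
    rw [ethree, mul_inv_eq_iff_eq_mul.2 this]
    exact hmem _ (h2 i)
  have hact' : ∀ i : Fin 5, ∀ k ∈ actU.getD i [] ++ actV.getD i [], 17 ≤ k ∧ k < 22 := fun i k hk =>
    of_decide_eq_true (List.all_eq_true.1 (hact i) k hk)
  refine not_three_dvd_of_inverted hσ ethree (z := el 16) (u := el 22) (v := el 23) (g := el 24)
    (a := 2) (b := 0) (c := 2) (d := 1) hE hEc (fun i => ?_) (fun i j => ?_) ezu ezv euv eu
    (mul_inv_eq_iff_eq_mul.2 egu) (mul_inv_eq_iff_eq_mul.2 egv) (by norm_num)
    (hconj 22 actU hau fun i k hk => hact' i k (List.mem_append_left _ hk))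
    (hconj 23 actV hav fun i k hk => hact' i k (List.mem_append_right _ hk)) ?_
  · have := realises.eq_of_sameWord (hinv i)
    simp only [lprod, mul_one] at this
    rw [ethree, eq_inv_mul_iff_mul_eq]
    exact this
  · rcases pairs_cover i j with h | h
    · exact Or.inl h
    simp only [List.any_eq_true, Bool.or_eq_true, Bool.and_eq_true, beq_iff_eq] at h
    obtain ⟨⟨i', j', h', a, b, c, d⟩, ht, hij⟩ := h
    have hp := List.all_eq_true.1 pairs_ok _ ht
    simp only [pairOk, Bool.and_eq_true, decide_eq_true_eq] at hp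
    obtain ⟨⟨⟨-, w1⟩, w2⟩, hd⟩ := hp
    have e1 := realises.eq_of_sameWord w1
    have e2 := realises.eq_of_sameWord w2
    simp only [lprod_append, Tables.lprod_rep, lprod, mul_one] at e1 e2
    have f1 := mul_inv_eq_iff_eq_mul.2 e1
    have f2 := mul_inv_eq_iff_eq_mul.2 e2
    rcases hij with ⟨hi, hj⟩ | ⟨hj, hi⟩
    · subst hi; subst hj
      exact Or.inr ⟨el h', a, b, c, d, f1, f2, hd⟩
    · subst hi; subst hj
      refine Or.inr ⟨el h', d, c, b, a, ?_, ?_, ?_⟩
      · rw [show ethree i ^ d * ethree j ^ c = ethree j ^ c * ethree i ^ d from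
          ((hEc i j).pow_pow d c).eq]
        exact f2
      · rw [show ethree i ^ b * ethree j ^ a = ethree j ^ a * ethree i ^ b from
          ((hEc i j).pow_pow b a).eq]
        exact f1
      · rw [mul_comm d a, mul_comm c b]; exact hd
  · intro hdvd
    set A := Subgroup.closure (Set.range ethree)
    set B := Subgroup.closure ({el 22, el 23} : Set coThreeGroup)
    have hA : IsPGroup 3 A := fun x => ⟨1, Subtype.ext (by
      show (x : coThreeGroup) ^ 3 ^ 1 = 1
      rw [pow_one]
      exact cube_of_mem_closure (by rintro _ ⟨i, rfl⟩ _ ⟨j, rfl⟩; exact hEc i j)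
        (by rintro _ ⟨i, rfl⟩; exact hE i) x.2)⟩
    have hB : IsPGroup 3 B := fun x => ⟨1, Subtype.ext (by
      show (x : coThreeGroup) ^ 3 ^ 1 = 1
      rw [pow_one]
      exact cube_of_mem_closure (by
        rintro _ (rfl | rfl) _ (rfl | rfl)
        exacts [Commute.refl _, euv, (show Commute (el 22) (el 23) from euv).symm, Commute.refl _])
        (by rintro _ (rfl | rfl); exacts [eu, ev]) x.2)⟩
    have hnorm : B ≤ Subgroup.normalizer (A : Set coThreeGroup) := by
      rw [Subgroup.closure_le]
      have key : ∀ w : coThreeGroup, (∀ i, w * ethree i * w⁻¹ ∈ A) →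
          w ∈ Subgroup.normalizer (A : Set coThreeGroup) := by
        intro w hw
        have hmap : A.map (MulAut.conj w).toMonoidHom ≤ A := by
          rw [MonoidHom.map_closure, Subgroup.closure_le]
          rintro _ ⟨_, ⟨i, rfl⟩, rfl⟩
          exact hw i
        have heq : A.map (MulAut.conj w).toMonoidHom = A :=
          Subgroup.eq_of_le_of_card_ge hmap
            (Subgroup.card_map_of_injective (MulAut.conj w).injective).ge
        rw [Subgroup.mem_normalizer_iff]
        intro h
        refine ⟨fun hh => hmap ⟨h, hh, rfl⟩, fun hh => ?_⟩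
        have hh' : MulAut.conj w h ∈ A := hh
        rw [← heq] at hh'
        obtain ⟨p, hp, e⟩ := hh'
        exact (MulAut.conj w).injective e ▸ hp
      rintro _ (rfl | rfl)
      · exact key _ (hconj 22 actU hau fun i k hk => hact' i k (List.mem_append_left _ hk))
      · exact key _ (hconj 23 actV hav fun i k hk => hact' i k (List.mem_append_right _ hk))
    have hH : IsPGroup 3 (Subgroup.closure (Set.range ethree ∪ {el 22, el 23})) := by
      rw [Subgroup.closure_union, sup_comm]
      exact IsPGroup.to_sup_of_normal_right' hB hA hnorm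
    obtain ⟨k, hk⟩ := IsPGroup.iff_card.1 hH
    have hw := words3_ok
    simp only [Bool.and_eq_true, decide_eq_true_eq, List.all_eq_true] at hw
    obtain ⟨⟨⟨hkey, hlen⟩, hlt⟩, hpts⟩ := hw
    have hle := realises.length_le_card (fun q hq => hpts q hq) hkey
      (Subgroup.closure (Set.range ethree ∪ {el 22, el 23})) fun w hw => Tables.lprod_mem fun i hi => by
        have := hlt w hw i hi
        refine Subgroup.subset_closure ?_
        rcases Nat.lt_or_ge i 22 with h | h
        · exact Or.inl ⟨⟨i - 17, by omega⟩, by show el (17 + (i - 17)) = el i; rw [Nat.add_sub_cancel' this.1]⟩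
        · rcases (show i = 22 ∨ i = 23 by omega) with rfl | rfl
          · exact Or.inr (Or.inl rfl)
          · exact Or.inr (Or.inr rfl)
    rw [hlen, hk] at hle
    have h37 : 3 ^ 7 ∣ Nat.card (Subgroup.closure (Set.range ethree ∪ {el 22, el 23})) := by
      rw [hk]; exact Nat.pow_dvd_pow 3 ((Nat.pow_le_pow_iff_right (by norm_num)).1 hle)
    have h2 := Nat.mul_dvd_mul h37 hdvd
    rw [Subgroup.card_mul_index, card_co3] at h2
    norm_num at h2

theorem not_five [Finite coThreeGroup] (hσ : Cfsg.IsStemExtension σ) : ¬ 5 ∣ Nat.card σ.ker := by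
  have hok := rels5_ok
  simp only [rels5, List.all_cons, List.all_nil, Bool.and_eq_true, and_true] at hok
  obtain ⟨e1, ex, ey, ez, exz, eyz, egx, egz, ehy, ehz⟩ := hok
  replace e1 := realises.eq_of_sameWord e1
  replace ex := realises.eq_of_sameWord ex
  replace ey := realises.eq_of_sameWord ey
  replace ez := realises.eq_of_sameWord ez
  replace exz := realises.eq_of_sameWord exz
  replace eyz := realises.eq_of_sameWord eyz
  replace egx := realises.eq_of_sameWord egx
  replace egz := realises.eq_of_sameWord egz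
  replace ehy := realises.eq_of_sameWord ehy
  replace ehz := realises.eq_of_sameWord ehz
  simp only [lprod_append, Tables.lprod_rep, lprod, mul_one] at e1 ex ey ez exz eyz egx egz ehy ehz
  obtain ⟨hk, hlen, hlt, hpts⟩ := words5_ok
  have hzc : el 35 * el 36 * (el 35)⁻¹ * (el 36)⁻¹ = el 37 := by rw [e1]; group
  refine OddSylow.not_dvd_of_extraspecial hσ (p := 5) (by norm_num) hzc ex ey ?_ exz eyz
    (mul_inv_eq_iff_eq_mul.2 egx) (mul_inv_eq_iff_eq_mul.2 egz) (by norm_num)
    (mul_inv_eq_iff_eq_mul.2 ehy) (mul_inv_eq_iff_eq_mul.2 ehz) (by norm_num) ?_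
  · intro h1
    have hz := z5_ne
    rw [← Bool.not_eq_true] at hz
    refine hz ?_
    simp only [List.all_eq_true, List.mem_range, beq_iff_eq]
    intro u hu
    rw [← realises.img 37 (by decide +kernel) ⟨u, hu⟩, h1, map_one]
    rfl
  · exact realises.not_dvd_index (p := 5) (by norm_num) hpts hk hlen hlt
      (m := 2 ^ 10 * 3 ^ 7 * 7 * 11 * 23) (by rw [card_co3]; norm_num) (by norm_num)
      (Tables.natCard_closure_le_cube (by norm_num) ex ey ez hzc exz eyz)

theorem hasCyclicSchurMultiplier_coThreeGroup : Cfsg.HasCyclicSchurMultiplier coThreeGroup 1 := by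
  haveI : Finite coThreeGroup := Nat.finite_of_card_ne_zero (by rw [natCard_coThreeGroup]; norm_num)
  refine hasCyclicSchurMultiplier_one_of_primes fun p hp hpd Γ _ _ τ hτ => ?_
  rw [card_co3] at hpd
  simp only [hp.dvd_mul] at hpd
  have hsq : ¬ p ^ 2 ∣ Nat.card coThreeGroup → ¬ p ∣ Nat.card τ.ker :=
    not_dvd_card_ker_of_sq_not_dvd hτ hp
  rw [card_co3] at hsq
  rcases hpd with h | ((((h | h) | h) | h) | h)
  · obtain rfl := (Nat.prime_dvd_prime_iff_eq hp Nat.prime_two).1 (hp.dvd_of_dvd_pow h)
    exact realises.not_two_dvd two_ok colCo3_table colCo3_solved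
      ⟨3 ^ 7 * 5 ^ 3 * 7 * 11 * 23, by norm_num, card_co3⟩ Γ τ hτ
  · obtain rfl := (Nat.prime_dvd_prime_iff_eq hp Nat.prime_three).1 (hp.dvd_of_dvd_pow h)
    exact not_three hτ
  · obtain rfl := (Nat.prime_dvd_prime_iff_eq hp Nat.prime_five).1 (hp.dvd_of_dvd_pow h)
    exact not_five hτ
  · obtain rfl := (Nat.prime_dvd_prime_iff_eq hp (by norm_num)).1 h
    exact hsq (by norm_num)
  · obtain rfl := (Nat.prime_dvd_prime_iff_eq hp (by norm_num)).1 h
    exact hsq (by norm_num)
  · obtain rfl := (Nat.prime_dvd_prime_iff_eq hp (by norm_num)).1 h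
    exact hsq (by norm_num)

theorem hasCyclicSchurMultiplier_Co3 : Cfsg.HasCyclicSchurMultiplier Cfsg.Spor.Co3 1 :=
  hasSchurMultiplier_congr
    ((coThreeGroup.equivMapOfInjective _ (Subgroup.subtype_injective _)).trans
      (MulEquiv.subgroupCongr CfsgLib.Mathieu.CoThreeOut.co3_eq_map.symm))
    hasCyclicSchurMultiplier_coThreeGroup

end CfsgLib.Co3Mult
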