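import Cfsg.Agent.Lib.Co3Mult.Data
import Cfsg.Agent.Lib.SchurMult.PermCert
import Cfsg.Agent.Lib.Leech.Act
import Cfsg.Agent.Lib.GolayStructure.ConwaySimple

/-! The action of Co3 on 552 minimal vectors by two listed matrices. -/

set_option autoImplicit false
set_option maxRecDepth 100000

namespace CfsgLib.Co3Mult

open Cfsg MulAction CfsgLib.Leech CfsgLib.GolayStructure CfsgLib.Fischer2
open CfsgLib.SporRecognition.CosetCert (allBelow allBelow_spec field)
open scoped Pointwise

/-- The entries of the fixed vector. -/
def listU : List ℤ := List.replicate 23 1 ++ [5]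

theorem toVec_listU : toVec listU = coordVec vecU := by
  funext p
  rw [coordVec_vecU]
  revert p
  decide +kernel

/-- The listed vectors. -/
def orbVecs : List (List ℤ) := orbVec0 ++ orbVec1 ++ orbVec2 ++ orbVec3 ++ orbVec4 ++ orbVec5 ++ orbVec6 ++ orbVec7

/-- The generator with the given number. -/
def genMat (a : ℕ) : List (List ℤ) := bif a == 0 then genMat0 else genMat1

theorem genMat_ok : (matOk (genMat 0) && matOk (genMat 1) && fixOk (genMat 0) listU &&
    fixOk (genMat 1) listU) = true := by decide +kernel

theorem orbVecs_ok : (decide (orbVecs.length = 552) && orbVecs.all memTest &&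
    (decide (orbVecs.getD 0 [] = listP))) = true := by decide +kernel

/-- A number separating the listed vectors. -/
def codeVec (L : List ℤ) : ℕ := L.foldl (fun s a => s * 16 + (a + 8).toNat) 0

/-- No value occurs twice. -/
noncomputable def distinct : List ℕ → Bool
  | [] => true
  | a :: l => (l.all fun b => !Nat.beq a b) && distinct l

theorem nodup_of_distinct : ∀ {l : List ℕ}, distinct l = true → l.Nodup
  | [], _ => List.nodup_nil
  | a :: l, h => by
    simp only [distinct, Bool.and_eq_true, List.all_eq_true, Bool.not_eq_true'] at h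
    exact List.nodup_cons.2 ⟨fun hm => Nat.ne_of_beq_eq_false (h.1 a hm) rfl, nodup_of_distinct h.2⟩

theorem codes_nodup : distinct (orbVecs.map codeVec) = true := by decide +kernel

theorem toVec_map_eight {L : List ℤ} (hl : L.length = 24) (p : GolayPt) :
    toVec (L.map (8 * ·)) p / 8 = toVec L p := by
  have h1 : CfsgLib.Golay.idx p < L.length := by rw [hl]; exact CfsgLib.Golay.idx_lt p
  simp only [toVec]
  rw [List.getD_eq_getElem _ _ (by rw [List.length_map]; exact h1), List.getD_eq_getElem _ _ h1,
    List.getElem_map]
  omega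

/-- The table of a generator. -/
noncomputable def genImg (a u : ℕ) : ℕ := field (genTbls.getD a 0) 10 u

/-- One generator maps one listed vector to the tabulated one. -/
noncomputable def moveOk (a : ℕ) : Bool :=
  allBelow 10 552 fun u => Nat.blt (genImg a u) 552 &&
    decide (applyM (genMat a) (orbVecs.getD u []) = (orbVecs.getD (genImg a u) []).map (8 * ·))

theorem moveOk0 : moveOk 0 = true := by decide +kernel

theorem moveOk1 : moveOk 1 = true := by decide +kernel

/-- The tree visits every place once, each from an earlier one. -/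
noncomputable def treeOk : List (ℕ × ℕ × ℕ) → List ℕ → Bool
  | [], seen => (List.range 552).all fun x => seen.contains x
  | t :: l, seen => Nat.blt t.2.1 2 && seen.contains t.2.2 && Nat.beq (genImg t.2.1 t.2.2) t.1 &&
      treeOk l (t.1 :: seen)

theorem tree_ok : treeOk orbTree [0] = true := by decide +kernel

/-- The generators. -/
noncomputable def gen (a : ℕ) : coThreeGroup :=
  if h : a < 2 then
    ⟨matAut (genMat a) (by
      have := genMat_ok; simp only [Bool.and_eq_true] at this
      interval_cases a
      exacts [this.1.1.1, this.1.1.2]), by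
      have := genMat_ok; simp only [Bool.and_eq_true] at this
      interval_cases a
      exacts [matAut_fixes _ this.1.2 toVec_listU, matAut_fixes _ this.2 toVec_listU]⟩
  else 1

/-- A listed vector. -/
noncomputable def vecAt (u : Fin 552) : leechLattice :=
  ofList (orbVecs.getD u []) (by
    have h := orbVecs_ok
    simp only [Bool.and_eq_true, decide_eq_true_eq, List.all_eq_true] at h
    rw [List.getD_eq_getElem _ _ (h.1.1.symm ▸ u.2)]
    exact h.1.2 _ (List.getElem_mem _))

theorem vecAt_zero : vecAt ⟨0, by norm_num⟩ = baseP := by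
  have h := orbVecs_ok
  simp only [Bool.and_eq_true, decide_eq_true_eq] at h
  refine Subtype.ext ?_
  show toVec (orbVecs.getD 0 []) = _
  rw [h.2]
  exact toVec_listP

theorem gen_move (a : ℕ) (ha : a < 2) (u : Fin 552) :
    ∃ h : genImg a u < 552, gen a • vecAt u = vecAt ⟨genImg a u, h⟩ := by
  have hm : moveOk a = true := by
    interval_cases a
    exacts [moveOk0, moveOk1]
  have h := allBelow_spec hm u u.2
  simp only [Bool.and_eq_true, Nat.blt_eq, decide_eq_true_eq] at h
  refine ⟨h.1, Subtype.ext ?_⟩
  rw [gen, dif_pos ha]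
  have hlen : ∀ v : Fin 552, (orbVecs.getD v []).length = 24 := fun v => by
    have h' := orbVecs_ok
    simp only [Bool.and_eq_true, decide_eq_true_eq, List.all_eq_true] at h'
    rw [List.getD_eq_getElem _ _ (h'.1.1.symm ▸ v.2)]
    have := h'.1.2 _ (List.getElem_mem (h'.1.1.symm ▸ v.2 : (v : ℕ) < orbVecs.length))
    simp only [memTest, Bool.and_eq_true, decide_eq_true_eq] at this
    exact this.1
  have hM : matOk (genMat a) = true := by
    have := genMat_ok; simp only [Bool.and_eq_true] at this
    interval_cases a
    exacts [this.1.1.1, this.1.1.2]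
  simp only [matOk, Bool.and_eq_true, List.all_eq_true, decide_eq_true_eq] at hM
  show matAct (genMat a) (toVec (orbVecs.getD u [])) = toVec (orbVecs.getD (genImg a u) [])
  funext p
  rw [matAct, matApply_toVec hM.1.1.1 hM.1.1.2 (hlen u), h.2]
  exact toVec_map_eight (hlen ⟨_, h.1⟩) p

theorem vecAt_mem_orbit (u : Fin 552) : vecAt u ∈ orbit coThreeGroup baseP := by
  have key : ∀ (l : List (ℕ × ℕ × ℕ)) (seen : List ℕ), treeOk l seen = true →
      (∀ x ∈ seen, ∃ h : x < 552, vecAt ⟨x, h⟩ ∈ orbit coThreeGroup baseP) →
      ∀ v : Fin 552, vecAt v ∈ orbit coThreeGroup baseP := by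
    intro l
    induction l with
    | nil =>
      intro seen h hs v
      simp only [treeOk, List.all_eq_true, List.mem_range, List.contains_iff_mem] at h
      obtain ⟨_, hv⟩ := hs _ (h v v.2)
      exact hv
    | cons t l ih =>
      intro seen h hs
      simp only [treeOk, Bool.and_eq_true, Nat.blt_eq, List.contains_iff_mem] at h
      obtain ⟨⟨⟨ha, hsrc⟩, hto⟩, hrest⟩ := h
      refine ih _ hrest fun x hx => ?_
      rcases List.mem_cons.1 hx with rfl | hx
      · obtain ⟨hlt, hv⟩ := hs _ hsrc
        obtain ⟨h', e⟩ := gen_move t.2.1 ha ⟨_, hlt⟩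
        have hto' := Nat.eq_of_beq_eq_true hto
        refine ⟨hto' ▸ h', ?_⟩
        have hv' := (MulAction.mem_orbit_iff.1 hv)
        obtain ⟨g, hg⟩ := hv'
        refine MulAction.mem_orbit_iff.2 ⟨gen t.2.1 * g, ?_⟩
        rw [mul_smul, hg, e]
        congr 2
      · exact hs x hx
  refine key _ _ tree_ok (fun x hx => ?_) u
  rw [List.mem_singleton] at hx
  subst hx
  exact ⟨by norm_num, by rw [vecAt_zero]; exact mem_orbit_self _⟩

theorem vecAt_injective : Function.Injective vecAt := by
  intro u v h
  have hc := codes_nodup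
  have hnd : (orbVecs.map codeVec).Nodup := nodup_of_distinct hc
  have hl : orbVecs.length = 552 := by
    have h' := orbVecs_ok
    simp only [Bool.and_eq_true, decide_eq_true_eq] at h'
    exact h'.1.1
  have e : toVec (orbVecs.getD u []) = toVec (orbVecs.getD v []) := congrArg Subtype.val h
  have hlen : ∀ w : Fin 552, (orbVecs.getD w []).length = 24 := fun w => by
    have h' := orbVecs_ok
    simp only [Bool.and_eq_true, decide_eq_true_eq, List.all_eq_true] at h'
    rw [List.getD_eq_getElem _ _ (hl.symm ▸ w.2)]
    have := h'.1.2 _ (List.getElem_mem (hl.symm ▸ w.2 : (w : ℕ) < orbVecs.length))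
    simp only [memTest, Bool.and_eq_true, decide_eq_true_eq] at this
    exact this.1
  have eL : orbVecs.getD u [] = orbVecs.getD v [] := by
    refine List.ext_getElem (by rw [hlen, hlen]) fun i h1 h2 => ?_
    have := congrFun e (CfsgLib.Golay.pt i)
    simp only [toVec, CfsgLib.Golay.idx_pt (show i < 24 by rw [hlen] at h1; exact h1)] at this
    rwa [List.getD_eq_getElem _ _ h1, List.getD_eq_getElem _ _ h2] at this
  have hu : (u : ℕ) < (orbVecs.map codeVec).length := by rw [List.length_map, hl]; exact u.2
  have hv : (v : ℕ) < (orbVecs.map codeVec).length := by rw [List.length_map, hl]; exact v.2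
  refine Fin.ext ((hnd.getElem_inj_iff (hi := hu) (hj := hv)).1 ?_)
  rw [List.getElem_map, List.getElem_map,
    ← List.getD_eq_getElem _ [] (hl.symm ▸ u.2), ← List.getD_eq_getElem _ [] (hl.symm ▸ v.2), eL]

theorem card_orbit : Nat.card (orbit coThreeGroup baseP) = 552 := by
  have h1 : Nat.card (stabilizer coThreeGroup baseP) = 898128000 := by
    rw [← natCard_triGroup_baseP]
    have hle : triGroup baseP ≤ coThreeGroup := inf_le_left
    rw [← Nat.card_congr (Subgroup.subgroupOfEquivOfLe hle).toEquiv]
    congr 2
    ext g
    simp only [Subgroup.mem_subgroupOf, triGroup, Subgroup.mem_inf, MulAction.mem_stabilizer_iff]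
    exact ⟨fun h => ⟨g.2, h⟩, fun h => h.2⟩
  haveI : Finite coThreeGroup := Nat.finite_of_card_ne_zero (by rw [natCard_coThreeGroup]; norm_num)
  have h2 := (stabilizer coThreeGroup baseP).index_mul_card
  rw [MulAction.index_stabilizer, natCard_coThreeGroup, h1] at h2
  rw [Nat.card_coe_set_eq]
  exact Nat.eq_of_mul_eq_mul_right (m := 898128000) (by norm_num) (h2.trans (by norm_num))

/-- The listed vectors are the orbit. -/
theorem vecAt_bijective : Function.Bijective
    (fun u => (⟨vecAt u, vecAt_mem_orbit u⟩ : orbit coThreeGroup baseP)) := by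
  haveI : Finite (orbit coThreeGroup baseP) := Nat.finite_of_card_ne_zero (by rw [card_orbit]; norm_num)
  refine Function.Injective.bijective_of_nat_card_le
    (fun u v h => vecAt_injective (congrArg Subtype.val h)) ?_
  rw [card_orbit, Nat.card_fin]

/-- The indexing of the orbit. -/
noncomputable def orbEquiv : Fin 552 ≃ orbit coThreeGroup baseP := Equiv.ofBijective _ vecAt_bijective

/-- The action on the 552 vectors. -/
noncomputable def perm552 : coThreeGroup →* Equiv.Perm (Fin 552) :=
  orbEquiv.symm.permCongrHom.toMonoidHom.comp (MulAction.toPermHom coThreeGroup (orbit coThreeGroup baseP))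

theorem perm552_gen (a : ℕ) (ha : a < 2) (u : Fin 552) : ((perm552 (gen a) u : Fin 552) : ℕ) = genImg a u := by
  obtain ⟨h, e⟩ := gen_move a ha u
  have : perm552 (gen a) u = ⟨genImg a u, h⟩ := by
    show orbEquiv.symm (gen a • orbEquiv u) = _
    rw [Equiv.symm_apply_eq]
    exact Subtype.ext e
  rw [this]

theorem perm552_injective : Function.Injective perm552 := by
  haveI := isSimpleGroup_coThreeGroup
  rw [← MonoidHom.ker_eq_bot_iff]
  refine (Subgroup.Normal.eq_bot_or_eq_top (H := perm552.ker) inferInstance).resolve_right fun htop => ?_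
  have h1 : perm552 (gen 0) = 1 := MonoidHom.mem_ker.1 (show gen 0 ∈ perm552.ker by
    rw [htop]; exact Subgroup.mem_top _)
  have h2 : (List.range 552).all (fun u => genImg 0 u == u) = true := by
    simp only [List.all_eq_true, List.mem_range, beq_iff_eq]
    intro u hu
    rw [← perm552_gen 0 (by norm_num) ⟨u, hu⟩, h1]
    rfl
  exact absurd h2 (by decide +kernel)

end CfsgLib.Co3Mult
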